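import Cfsg.Agent.BpSpor.Inn.Suz
import Cfsg.Agent.H812.SuzSeven

/-!
# Elements of odd order above the Suzuki group (helper416, task 1829)

* `mem_of_odd` : `S ⊲ X`, `S ≅ Suz` with trivial centralizer: the elements of odd order lie in `S`;
* `no_35` : `Suz` has no elements of order 35.
-/

set_option autoImplicit false

namespace Cfsg.Agent.H416.Sp.SuzN

open Subgroup Cfsg

theorem sq_inner {S : Type*} [Group S] (h : Spor.IsoSuz S) (φ : MulAut S) : ∃ s : S, φ ^ 2 = MulAut.conj s := by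
  obtain ⟨e⟩ := h
  have h1 : (MulAut.congr e φ) ^ 2 ∈ (MulAut.conj : Spor.Suz →* MulAut Spor.Suz).range := by
    have hn := Cfsg.Agent.OddHalf.Quat.NoThree.normal_inn (K := Spor.Suz)
    rcases Cfsg.Agent.KFacts.SuzOut.index_eq with h | h
    · have h2 := Subgroup.index_eq_one.1 h
      rw [h2]
      trivial
    · have h2 := Subgroup.pow_index_mem (MulAut.conj : Spor.Suz →* MulAut Spor.Suz).range (MulAut.congr e φ)
      rw [h] at h2
      exact h2
  obtain ⟨t, ht⟩ := h1
  refine ⟨e.symm t, ?_⟩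
  apply (MulAut.congr e).injective
  rw [map_pow, ← ht]
  ext y
  simp [MulAut.congr]

theorem mem_of_odd {X : Type*} [Group X] (S : Subgroup X) [S.Normal] (hc : centralizer (S : Set X) = ⊥)
    (h : Spor.IsoSuz S) {g : X} (hg : Odd (orderOf g)) : g ∈ S := by
  obtain ⟨s, hs⟩ := sq_inner h (MulAut.conjNormal (H := S) g)
  have h2 : (s : X)⁻¹ * g ^ 2 ∈ centralizer (S : Set X) := by
    rw [mem_centralizer_iff]
    intro y hy
    have h3 : ((MulAut.conjNormal (H := S) (g ^ 2) ⟨y, hy⟩ : ↥S) : X) = ((MulAut.conj s ⟨y, hy⟩ : ↥S) : X) := by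
      rw [map_pow, hs]
    rw [MulAut.conjNormal_apply, MulAut.conj_apply, Subgroup.coe_mul, Subgroup.coe_mul, Subgroup.coe_inv] at h3
    simp only at h3
    calc y * ((s : X)⁻¹ * g ^ 2) = (s : X)⁻¹ * ((s : X) * y * (s : X)⁻¹) * g ^ 2 := by group
      _ = (s : X)⁻¹ * (g ^ 2 * y * (g ^ 2)⁻¹) * g ^ 2 := by rw [← h3]
      _ = _ := by group
  rw [hc, mem_bot, inv_mul_eq_one] at h2
  have h3 : g ^ 2 ∈ S := by rw [← h2]; exact s.2
  obtain ⟨k, hk⟩ := hg
  have h4 : g = ((g ^ 2) ^ k)⁻¹ := by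
    rw [eq_inv_iff_mul_eq_one, ← pow_mul, ← pow_succ', ← hk, pow_orderOf_eq_one]
  rw [h4]
  exact inv_mem (pow_mem h3 k)

theorem no_35 {S : Type*} [Group S] [Finite S] (h : Spor.IsoSuz S) (s : S) : orderOf s ≠ 35 := by
  intro hs
  have h7 : Fact (Nat.Prime 7) := ⟨by norm_num⟩
  have hc : Nat.card S = 7 * 64049356800 := by
    obtain ⟨e⟩ := h
    rw [Nat.card_congr e.toEquiv, Cfsg.Agent.H812.SuzSeven.card_Suz]
  have h5 : orderOf (s ^ 5) = 7 := by
    rw [orderOf_pow' _ (by norm_num), hs]; norm_num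
  have hp : IsPGroup 7 (zpowers (s ^ 5)) := IsPGroup.of_card (n := 1) (by rw [Nat.card_zpowers, h5, pow_one])
  obtain ⟨B, hB⟩ := hp.exists_le_sylow
  have hBc : Nat.card B = 7 := by
    rw [Sylow.card_eq_multiplicity, hc, Nat.factorization_mul (by norm_num) (by norm_num), Finsupp.add_apply,
      Nat.Prime.factorization_self (by norm_num), Nat.factorization_eq_zero_of_not_dvd (by norm_num), add_zero, pow_one]
  have hB' : zpowers (s ^ 5) = (B : Subgroup S) := by
    apply Subgroup.eq_of_le_of_card_ge hB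
    rw [Nat.card_zpowers, h5]
    exact hBc.le
  obtain ⟨⟨e⟩, -⟩ := Cfsg.Agent.H812.SuzSeven.main h B
  have hsC : s ∈ centralizer ((B : Subgroup S) : Set S) := by
    rw [← hB', mem_centralizer_iff]
    rintro _ ⟨k, rfl⟩
    exact (((Commute.refl s).pow_left 5).zpow_left k).eq
  have h1 := orderOf_dvd_natCard (⟨s, hsC⟩ : centralizer ((B : Subgroup S) : Set S))
  rw [Subgroup.orderOf_mk, hs, Nat.card_congr e.toEquiv, Nat.card_prod, Nat.card_congr Multiplicative.toAdd,
    Nat.card_zmod, nat_card_alternatingGroup] at h1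
  simp [Nat.factorial] at h1

end Cfsg.Agent.H416.Sp.SuzN
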